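import Cfsg.Agent.E82.F5.V5

/-!
# S3369: the box `V5G` (helper40)

* `diag_of_fix` : an element which fixes the Cartan subalgebra pointwise maps `er s` to the span of `er s`, `er (-s)`;
* `v5g : V5G`.
-/

set_option autoImplicit false
set_option linter.unusedSectionVars false
set_option maxRecDepth 100000
set_option maxHeartbeats 400000

namespace Cfsg.Agent.E82.F5

open Cfsg Cfsg.Lie Cfsg.Lie.ChevalleyDatum Matrix
open Cfsg.Agent.Tits.Roots Cfsg.Agent.ChevalleyStructure.CoxeterGeomTypes Cfsg.Agent.Nodes.RGDChev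
open Cfsg.Agent.ChevalleyStructure.Columns (car cor)
open Cfsg.Agent.KFacts.RgdChevCoord (TT)
open Cfsg.Agent.BpExc.RowsUntw (e8T)
open Cfsg.Agent.H129.TorusChar (cX)
open Cfsg.Agent.H939.L64 (KK E2 LK em aK rE brK)
open Cfsg.Agent.H413.L16 (er hv hr xr cast_odd cast_congr eq_of_er br_hv vec_neg8 rk8 lin)
open Cfsg.Agent.H876.L64 (aK_mul aK_one aK_inv aK_inv' aK_add aK_smul aK_zero aK_brK)
open Cfsg.Agent.H239.E8P (io1 RT RT_lt)
open Cfsg.Agent.Lib.VonDyck (a5 b5)
open Cfsg.Agent.E82.Fr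
open Cfsg.Agent.E82.Soc (co rv T0 co_br_hv T0_br_hv co_smul co_add co_er_self co_er_ne er_T0 eq_zero_of aK_conj_xr)

attribute [local instance] Cfsg.Agent.H413.L64.charKK

/-- the weights of the roots modulo two, eight bits per root -/
def WT2 : ℕ := 47764352860006173876582047128410698715859907676342190704183088676777201282742820537453099974018388514732657973430320812237976837666082250889005662810252667519120628990776270546577944249282991649440353487122441374705147047798702367153886918576617926103897050633175169274839407740136371454897321796620027956059667358774588514176391476896038413038853468286770360965091095185417154998242225632038222042939044184600916199923495216315277511402895584748037868761635066755499571293085271409950127934571105248368830835639994191304672882639961963330687208494828361974462481801447661944960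

/-- the weight of a root -/
def wt2 (r : ℕ) : ℕ := Nat.shiftRight WT2 (8 * r) % 256

theorem wt2_car : ∀ r < 240, ∀ k < 8, (car chevE8 k r - (wt2 r / 2 ^ k % 2 : ℕ)) % 2 = 0 := by decide +kernel

theorem wt2_inj : allN (fun r => frc (wt2 r) fun a => Nat.blt 0 a && allN (fun s => !(Nat.beq a (wt2 s)) || Nat.beq r s ||
    Nat.beq r (239 - s)) 240) 240 = true := by decide +kernel

theorem bits8 : ∀ a < 256, ∀ b < 256, (∀ k < 8, a / 2 ^ k % 2 = b / 2 ^ k % 2) → a = b := by
  intro a ha b hb h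
  have h0 := h 0 (by norm_num)
  have h1 := h 1 (by norm_num)
  have h2 := h 2 (by norm_num)
  have h3 := h 3 (by norm_num)
  have h4 := h 4 (by norm_num)
  have h5 := h 5 (by norm_num)
  have h6 := h 6 (by norm_num)
  have h7 := h 7 (by norm_num)
  omega

theorem wt2_lt (r : ℕ) : wt2 r < 256 := Nat.mod_lt _ (by norm_num)

theorem wt2_spec {r : ℕ} (hr : r < 240) : wt2 r ≠ 0 ∧ ∀ s < 240, wt2 r = wt2 s → r = s ∨ r = 239 - s := by
  have h := allN_spec wt2_inj r hr
  rw [frc_eq, Bool.and_eq_true, Nat.blt_eq] at h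
  refine ⟨by omega, fun s hs e => ?_⟩
  have h1 := allN_spec h.2 s hs
  simpa [e] using h1

theorem exists_odd {s : ℕ} (hs : s < 240) : ∃ k < 8, car chevE8 k s % 2 ≠ 0 := by
  by_contra h
  push Not at h
  refine (wt2_spec hs).1 (bits8 _ (wt2_lt s) 0 (by norm_num) fun k hk => ?_)
  have h1 := wt2_car s hs k hk
  have h2 := h k hk
  rw [Nat.zero_div]
  omega

theorem exists_sep {r s : ℕ} (hr : r < 240) (hs : s < 240) (h1 : r ≠ s) (h2 : r ≠ 239 - s) :
    ∃ k < 8, (car chevE8 k r - car chevE8 k s) % 2 ≠ 0 := by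
  by_contra h
  push Not at h
  refine ((wt2_spec hr).2 s hs (bits8 _ (wt2_lt r) _ (wt2_lt s) fun k hk => ?_)).elim h1 h2
  have h3 := wt2_car r hr k hk
  have h4 := wt2_car s hs k hk
  have h5 := h k hk
  omega

theorem rv_single (k : Fin chevE8.rank) (r : ℕ) : rv (Pi.single k 1) r = ((car chevE8 k r : ℤ) : KK) := by
  unfold rv
  rw [Finset.sum_eq_single k, Pi.single_eq_same, one_mul]
  · intro b _ hb
    rw [Pi.single_eq_of_ne hb, zero_mul]
  · intro h
    exact absurd (Finset.mem_univ k) h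

/-- **an element which fixes the Cartan subalgebra pointwise** -/
theorem diag_of_fix {k : GK} (h : ∀ c, aK k (hv c) = hv c) {s : ℕ} (hs : s < 240) :
    T0 (aK k (er s)) ∧ ∀ r < 240, r ≠ s → r ≠ 239 - s → co r (aK k (er s)) = 0 := by
  have key : ∀ j < 8, ∃ c, (∀ r, rv c r = ((car chevE8 j r : ℤ) : KK)) ∧
      brK (hv c) (aK k (er s)) = ((car chevE8 j s : ℤ) : KK) • aK k (er s) := fun j hj => by
    refine ⟨Pi.single ((⟨j, hj⟩ : Fin 8).cast rk8.symm) 1, rv_single _, ?_⟩
    conv_lhs => rw [← h]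
    rw [← aK_brK, br_hv _ hs, aK_smul]
    exact congrArg (· • aK k (er s)) (rv_single _ s)
  refine ⟨fun i => ?_, fun r hr h1 h2 => ?_⟩
  · obtain ⟨j, hj, h1⟩ := exists_odd hs
    obtain ⟨c, -, h2⟩ := key j hj
    have h3 := T0_br_hv c (aK k (er s)) i
    rwa [h2, cast_odd h1, one_smul] at h3
  · obtain ⟨j, hj, h3⟩ := exists_sep hr hs h1 h2
    obtain ⟨c, h4, h5⟩ := key j hj
    have h6 := co_br_hv c r (aK k (er s))
    rw [h5, co_smul, h4] at h6
    have h7 := cast_odd h3
    push_cast at h7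
    linear_combination -h6 - co r (aK k (er s)) * h7

theorem dv_opp' {N : ℕ} [NeZero N] (u : Fin 8 → ZMod N) {s : ℕ} (hs : s < 240) : dv u (239 - s) = -dv u s := by
  rw [dv, vec_neg8 hs, dz_neg]
  rfl

/-- **the kernel of the action on `sl₅ + sl₅`** -/
theorem ker_diag {ζ : KK} (hζ : IsPrimitiveRoot ζ 5) {t k : GK} (ht : Tv t v48 ζ) (hc : k * t = t * k) (h : Au k 1) :
    (∀ s < 240, ∃ c : KK, aK k (er s) = c • er s) ∧ ∀ g, g * t = t * g → k * g = g * k := by
  have h1 : ∀ w ∈ Im, aK k w = w := by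
    rintro _ ⟨A, hA, rfl⟩
    exact (h.fix_iff hA).2 fun c => by rw [Pi.one_apply, Units.val_one, one_mul, mul_one]
  have h2 : ∀ r ∈ LR, r < 240 ∧ aK k (er r) = er r := fun r hr => by
    obtain ⟨c, i, j, hij, rfl⟩ := LR_mem r hr
    exact ⟨RT_lt c i j hij, h1 _ (by rw [← io_E c hij]; exact io1_mem c (tr_E hij))⟩
  have h3 : ∀ s < 240, ∃ c : KK, aK k (er s) = c • er s := fun s hs => by
    by_cases h0 : dv v48 s = 0
    · exact ⟨1, by rw [(h2 s (LR_of hs h0)).2, one_smul]⟩
    obtain ⟨h4, h5⟩ := diag_of_fix (fun c => h1 _ (hv_mem c)) hs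
    have h6 : co (239 - s) (aK k (er s)) = 0 := by
      have h7 := tv_co hζ ht (r := 239 - s) (by omega) (aK k (er s))
      rw [← aK_mul, ← hc, aK_mul, ht.er hζ hs, aK_smul, co_smul, dv_opp' _ hs] at h7
      by_contra h8
      have h9 := (Cfsg.Agent.H413.L64.pow_inj_val hζ).1 (mul_right_cancel₀ h8 h7)
      exact h0 (self_neg _ h9.symm)
    refine ⟨co s (aK k (er s)), ?_⟩
    rw [← sub_eq_zero, sub_eq_add_neg, ← neg_smul]
    refine eq_zero_of (fun i => by rw [Pi.add_apply, Pi.smul_apply, h4 i, er_T0, smul_zero, add_zero]) fun r hr => ?_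
    rw [co_add, co_smul]
    by_cases e1 : r = s
    · rw [e1, co_er_self hs, mul_one, add_neg_cancel]
    · rw [co_er_ne (Ne.symm e1), mul_zero, add_zero]
      by_cases e2 : r = 239 - s
      · rw [e2, h6]
      · exact h5 r hr e1 e2
  refine ⟨h3, fun g hg => ?_⟩
  have h4 : ∀ i : Fin 1, Tv (![t] i) (![v48] i) ζ := fun i => by fin_cases i; exact ht
  obtain ⟨m, hm, s, hs, rfl⟩ := cent_of_conZ hζ h4 (conZ1 hζ h4) (L := LR) (fun r hr h => LR_of hr (h 0)) (c := g)
    fun i => by fin_cases i; exact hg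
  have h5 : k * s = s * k := eq_of_er fun r hr => by
    obtain ⟨c, hc'⟩ := h3 r hr
    rw [aK_mul, aK_mul, aK_tor_er hs hr, aK_smul, hc', aK_smul, aK_tor_er hs hr, smul_comm]
  have h6 : k * m = m * k := KB_ind (L := LR) (fun r hr => (h2 r hr).1) (P := fun m => k * m = m * k)
    (by rw [one_mul, mul_one]) (fun r hr a g hg => by
      have h7 : k * xr r a = xr r a * k := eq_of_er fun s _ => by
        rw [aK_mul, aK_mul, aK_conj_xr (h2 r hr).1 (h2 r hr).1 (h2 r hr).2]
      rw [← mul_assoc, h7, mul_assoc, hg, mul_assoc]) hm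
  rw [← mul_assoc, h6, mul_assoc, h5, mul_assoc]

theorem scal_one {U : M5ˣ} {a : KK} (h : (U : M5) = (a * a) • (U : M5)) : a = 1 := by
  have h1 : (1 : M5) = (a * a) • (1 : M5) := by rw [← U.mul_inv, ← smul_mul_assoc, ← h]
  have h2 := congrFun (congrFun h1 0) 0
  rw [Matrix.smul_apply, one_apply_eq, smul_eq_mul, mul_one] at h2
  exact sq_one h2.symm

theorem comm_tr {G : Type*} [Group G] {u z g : G} : Commute u g ↔ z⁻¹ * u * z * (z⁻¹ * g * z) = z⁻¹ * g * z * (z⁻¹ * u * z) := by
  constructor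
  · intro h
    calc z⁻¹ * u * z * (z⁻¹ * g * z) = z⁻¹ * (u * g) * z := by group
      _ = z⁻¹ * (g * u) * z := by rw [h.eq]
      _ = _ := by group
  · intro h
    show u * g = g * u
    calc u * g = z * (z⁻¹ * u * z * (z⁻¹ * g * z)) * z⁻¹ := by group
      _ = _ := by rw [h]; group

theorem dih {G : Type*} [Group G] {u a : G} (ha : a * a = 1) (h : (a * u)⁻¹ * (u * a) * a = a * ((a * u)⁻¹ * (u * a))) :
    (a * u)⁻¹ * (u * a) * ((a * u)⁻¹ * (u * a)) = 1 := by
  have h1 : a⁻¹ = a := inv_eq_of_mul_eq_one_right ha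
  calc (a * u)⁻¹ * (u * a) * ((a * u)⁻¹ * (u * a)) = (a * u)⁻¹ * u * (a * ((a * u)⁻¹ * (u * a))) := by group
    _ = u⁻¹ * a⁻¹ * a⁻¹ * u * (a * a) := by rw [← h]; group
    _ = 1 := by rw [h1, ha, mul_assoc u⁻¹, ha]; group

theorem comm_all {G : Type*} [Group G] (F : A5 →* G) {u : G} (ha : Commute u (F a5)) (hx : Commute u (F x5)) (g : A5) :
    Commute u (F g) := by
  have h7 : g ∈ (Subgroup.centralizer {u}).comap F :=
    all_of (Subgroup.mem_comap.2 (Subgroup.mem_centralizer_singleton_iff.2 ha.symm.eq))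
      (Subgroup.mem_comap.2 (Subgroup.mem_centralizer_singleton_iff.2 hx.symm.eq)) g
  exact (Subgroup.mem_centralizer_singleton_iff.1 (Subgroup.mem_comap.1 h7)).symm

/-- **box V5G** -/
theorem v5g : V5G := by
  intro φ x' t h ht u hx hx' hw
  obtain ⟨ζ, ω, z, ψ, P, e, f, hb⟩ := h.br
  obtain ⟨u', hu⟩ : ∃ u', u' = z⁻¹ * u * z := ⟨_, rfl⟩
  have tr : ∀ g : E2, Commute u (em g) ↔ u' * cj z g = cj z g * u' := fun g => by
    rw [hu, cj_apply]
    exact comm_tr
  obtain ⟨U, hU⟩ := exists_Au hb.z5 hb.one.tv ((tr x').1 hx')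
  have sc : ∀ g, Commute u (em (φ g)) → ∀ c, ∃ a : KK, (U c : M5) * ψ c g = a • ((ψ c g : M5) * U c) := fun g hg c => by
    have h1 := hU.mul (hb.au g)
    rw [(tr _).1 hg] at h1
    exact h1.scal2 ((hb.au g).mul hU) c
  have ca : ∀ c, (U c : M5) * ψ c a5 = ψ c a5 * U c := fun c => by
    have ww := (hb.rep c).ww
    have wx := (hb.rep c).wx
    have xy := dgz_xy hb.z5 (e c)
    have yx := dgz_yx hb.z5 (e c)
    obtain ⟨β, hβ⟩ := sc w5 hw c
    have h1 : β = 1 := scal_one (U := U c) (by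
      have h2 : (U c : M5) * ψ c w5 * ψ c w5 = β • ((ψ c w5 : M5) * ((U c : M5) * ψ c w5)) := by
        rw [hβ, smul_mul_assoc, mul_assoc, hβ]
      rwa [mul_assoc, ww, mul_one, hβ, mul_smul_comm, ← mul_assoc, ww, one_mul, smul_smul] at h2)
    rw [h1, one_smul] at hβ
    obtain ⟨α, hα⟩ := sc x5 hx c
    rw [hb.xd] at hα
    have h2 : α = 1 := scal_one (U := U c) (by
      generalize (ψ c w5 : M5) = W at *
      generalize dgz ζ (e c) = X at *
      generalize dgz ζ (-e c) = Y at *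
      generalize (U c : M5) = V at *
      have h3 : V * Y = α • (Y * V) := by
        have h4 : W * (V * X) * W = W * (α • (X * V)) * W := by rw [hα]
        rw [mul_smul_comm, smul_mul_assoc] at h4
        have h5 : W * (V * X) * W = V * Y := by
          linear_combination (norm := noncomm_ring) -hβ * (X * W) + V * wx * W + V * Y * ww
        have h6 : W * (X * V) * W = Y * V := by
          linear_combination (norm := noncomm_ring) W * X * hβ + wx * (W * V) + Y * ww * V
        rw [← h5, h4, h6]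
      have h4 : V * X * Y = α • (X * (V * Y)) := by rw [hα, smul_mul_assoc, mul_assoc]
      rwa [mul_assoc, xy, mul_one, h3, mul_smul_comm, ← mul_assoc, xy, one_mul, smul_smul] at h4)
    rw [h2, one_smul] at hα
    exact (hb.rep c).comm (hb.ty ht c) hα hβ
  have h1 := ((hb.au a5).mul hU).inv.mul (hU.mul (hb.au a5))
  have h2 : ((fun c => ψ c a5) * U)⁻¹ * (U * fun c => ψ c a5) = 1 := by
    rw [inv_mul_eq_one]
    exact funext fun c => Units.ext (ca c).symm
  rw [h2] at h1
  have hc : cj z (φ a5) * cj z x' = cj z x' * cj z (φ a5) := by rw [← map_mul, ← map_mul, (h.cm a5).eq]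
  have k1 : Commute (cj z (φ a5)) (cj z x') := hc
  have k2 : Commute u' (cj z x') := (tr x').1 hx'
  obtain ⟨h3, h4⟩ := ker_diag hb.z5 hb.one.tv ((k1.mul_left k2).inv_left.mul_left (k2.mul_left k1)).eq h1
  have h5 := dih (u := u') (by rw [← map_mul, ← map_mul, rel_aa, map_one, map_one]) (h4 _ hc)
  have h6 : (cj z (φ a5) * u')⁻¹ * (u' * cj z (φ a5)) = 1 := eq_of_er fun s hs => by
    obtain ⟨c, hc'⟩ := h3 s hs
    have h7 := congrArg (fun g => co s (aK g (er s))) h5
    simp only [aK_mul _ ((cj z (φ a5) * u')⁻¹ * (u' * cj z (φ a5))), hc', aK_smul, aK_one, co_smul, co_er_self hs,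
      mul_one] at h7
    rw [hc', sq_one h7, one_smul, aK_one]
  have ha : Commute u (em (φ a5)) := (tr _).2 (inv_mul_eq_one.1 h6).symm
  exact comm_all (em.comp φ) ha hx

end Cfsg.Agent.E82.F5
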